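import Cfsg.Agent.SRG77.Cocliques
import Cfsg.Agent.Steiner.Iso22
import Cfsg.Agent.Steiner.Graph22

/-!
A strongly regular graph with parameters (77, 16, 0, 4) is the block graph of an S(3,6,22).
-/

set_option autoImplicit false

namespace CfsgLib.SRG77

open Finset Cfsg

universe u

variable {V : Type u} [Fintype V] [DecidableEq V] {G : SimpleGraph V} [DecidableRel G.Adj]

theorem exists_steiner_model (hG : G.IsSRGWith 77 16 0 4) : ∃ (α : Type u) (_ : Fintype α) (B : Set (Finset α)),
    IsSteinerSystem 3 6 B ∧ Fintype.card α = 22 ∧ Nonempty (blockGraph B ≃g G) := by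
  classical
  let α := {C // C ∈ cocliques G}
  have hα : Fintype.card α = 22 := by rw [Fintype.card_coe]; exact card_cocliques hG
  let blk : V → Finset α := fun x => univ.filter fun C => x ∈ C.1
  have hmap : ∀ x, (blk x).map (Function.Embedding.subtype _) = (cocliques G).filter fun C => x ∈ C := by
    intro x; ext C; simp [blk, α, and_comm]
  have h6 : ∀ x, (blk x).card = 6 := fun x => by
    rw [← card_map (Function.Embedding.subtype _), hmap, card_through hG x]
  have hadj : ∀ {x y : V}, G.Adj x y → Disjoint (blk x) (blk y) := by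
    intro x y h
    rw [disjoint_left]
    intro C hx hy
    simp only [blk, mem_filter] at hx hy
    exact ((mem_cocliques G).1 C.2).2 x hx.2 y hy.2 h
  have htwo : ∀ {x y : V}, x ≠ y → ¬ G.Adj x y → (blk x ∩ blk y).card = 2 := by
    intro x y hxy h
    rw [← card_map (Function.Embedding.subtype _), map_inter, hmap, hmap, ← filter_and]
    exact card_through_two hG x hxy.symm h
  have hle : ∀ {x y : V}, x ≠ y → (blk x ∩ blk y).card ≤ 2 := by
    intro x y hxy
    by_cases h : G.Adj x y
    · rw [disjoint_iff_inter_eq_empty.1 (hadj h)]; simp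
    · exact (htwo hxy h).le
  have hinj : Function.Injective blk := fun x y h => by
    by_contra hxy
    have := hle hxy
    rw [h, inter_self, h6] at this
    omega
  have hB : IsSteinerSystem 3 6 (Set.range blk) := by
    refine ⟨by rintro _ ⟨x, rfl⟩; exact h6 x, fun s hs => ?_⟩
    have huniq : ∀ x y : V, s ⊆ blk x → s ⊆ blk y → x = y := fun x y hx hy => by
      by_contra hxy
      have := card_le_card (subset_inter hx hy)
      have := hle hxy
      omega
    have hall : (univ : Finset V).biUnion (fun x => (blk x).powersetCard 3) = (univ : Finset α).powersetCard 3 := by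
      refine eq_of_subset_of_card_le (fun t ht => ?_) (le_of_eq ?_)
      · obtain ⟨x, -, hx⟩ := mem_biUnion.1 ht
        exact mem_powersetCard.2 ⟨subset_univ _, (mem_powersetCard.1 hx).2⟩
      · rw [card_biUnion, sum_congr rfl fun x _ => by rw [card_powersetCard, h6], sum_const, card_univ, hG.card,
          card_powersetCard, card_univ, hα]
        · rfl
        · intro x _ y _ hxy
          rw [Function.onFun, disjoint_left]
          intro t hx hy
          have := card_le_card (subset_inter (mem_powersetCard.1 hx).1 (mem_powersetCard.1 hy).1)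
          have := hle hxy
          have := (mem_powersetCard.1 hx).2
          omega
    have hs' : s ∈ (univ : Finset α).powersetCard 3 := mem_powersetCard.2 ⟨subset_univ _, hs⟩
    rw [← hall, mem_biUnion] at hs'
    obtain ⟨x, -, hx⟩ := hs'
    refine ⟨blk x, ⟨⟨x, rfl⟩, (mem_powersetCard.1 hx).1⟩, ?_⟩
    rintro _ ⟨⟨y, rfl⟩, hy⟩
    exact congrArg blk (huniq y x hy (mem_powersetCard.1 hx).1)
  refine ⟨α, inferInstance, Set.range blk, hB, hα, ⟨⟨(Equiv.ofInjective blk hinj).symm, fun {p q} => ?_⟩⟩⟩
  obtain ⟨x, rfl⟩ := (Equiv.ofInjective blk hinj).surjective p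
  obtain ⟨y, rfl⟩ := (Equiv.ofInjective blk hinj).surjective q
  rw [Equiv.symm_apply_apply, Equiv.symm_apply_apply, CfsgLib.Steiner.Graph22.blockGraph_adj hB]
  refine ⟨fun h => hadj h, fun h => ?_⟩
  by_contra hn
  simp only [Equiv.ofInjective_apply, disjoint_iff_inter_eq_empty] at h
  by_cases hxy : x = y
  · subst hxy
    rw [inter_self] at h
    have := h6 x
    rw [h] at this
    simp at this
  · have h2 := htwo hxy hn
    rw [h] at h2
    simp at h2

/-- Relabelling gives an isomorphism of block graphs. -/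
theorem exists_blockGraph_iso {α β : Type u} [DecidableEq β] {B : Set (Finset α)} {B' : Set (Finset β)}
    (h : SetSystemIso B B') : Nonempty (blockGraph B ≃g blockGraph B') := by
  classical
  obtain ⟨e, he⟩ := h
  have hm : ∀ b ∈ B, b.image e ∈ B' := fun b hb => he ▸ ⟨b, hb, rfl⟩
  let eB : B ≃ B' := Equiv.ofBijective (fun b => ⟨(b : Finset α).image e, hm _ b.2⟩)
    ⟨fun b c h => Subtype.ext (Finset.image_injective e.injective (congrArg Subtype.val h)), fun c => by
      obtain ⟨b, hb, hbc⟩ : (c : Finset β) ∈ (fun b : Finset α => b.image e) '' B := by rw [he]; exact c.2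
      exact ⟨⟨b, hb⟩, Subtype.ext hbc⟩⟩
  refine ⟨⟨eB, fun {p q} => ?_⟩⟩
  simp only [blockGraph, SimpleGraph.fromRel_adj, ne_eq, eB.injective.eq_iff]
  show _ ∧ (Disjoint (p.1.image e) (q.1.image e) ∨ Disjoint (q.1.image e) (p.1.image e)) ↔ _
  rw [Finset.disjoint_image e.injective, Finset.disjoint_image e.injective]

/-- Uniqueness of the strongly regular graph with parameters (77, 16, 0, 4). -/
theorem srg_unique {W : Type*} [Fintype W] [DecidableEq W] {H : SimpleGraph W} [DecidableRel H.Adj]
    (hG : G.IsSRGWith 77 16 0 4) (hH : H.IsSRGWith 77 16 0 4) : Nonempty (G ≃g H) := by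
  classical
  let e : ULift.{u} (Fin 77) ≃ W := Equiv.ulift.trans (Fintype.equivFinOfCardEq hH.card).symm
  let H' : SimpleGraph (ULift.{u} (Fin 77)) := H.comap e
  let iso : H' ≃g H := SimpleGraph.Iso.comap e H
  have hH' : H'.IsSRGWith 77 16 0 4 := by
    refine ⟨by simp, fun v => ?_, fun v w h => ?_, fun v w hne h => ?_⟩
    · rw [← hH.regular (e v)]
      exact (iso.degree_eq v).symm
    · rw [← hH.of_adj (e v) (e w) h]
      exact Fintype.card_congr (e.subtypeEquiv fun z => Iff.rfl)
    · rw [← hH.of_not_adj (e.injective.ne hne) h]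
      exact Fintype.card_congr (e.subtypeEquiv fun z => Iff.rfl)
  obtain ⟨α, _, B, hB, hα, ⟨φ⟩⟩ := exists_steiner_model hG
  obtain ⟨β, _, B', hB', hβ, ⟨ψ⟩⟩ := exists_steiner_model hH'
  obtain ⟨θ⟩ := exists_blockGraph_iso (CfsgLib.Steiner.iso22 hB hα hB' hβ)
  exact ⟨((φ.symm.trans θ).trans ψ).trans iso⟩

end CfsgLib.SRG77
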