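import Mathlib

/-!
A graph on fifteen points with parameters (15, 6, 1, 3): every two non-adjacent points lie in exactly
one independent five-set, and every point lies in exactly two of them.
-/

set_option autoImplicit false

namespace CfsgLib.SRG77

open Finset

/-- The hypotheses, for the neighbourhood function of a graph. -/
structure QuadGraph {α : Type*} [Fintype α] [DecidableEq α] (N : α → Finset α) : Prop where
  symm : ∀ {a b : α}, b ∈ N a → a ∈ N b
  irrefl : ∀ a, a ∉ N a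
  deg : ∀ a, (N a).card = 6
  adjacent : ∀ {a b : α}, b ∈ N a → (N a ∩ N b).card = 1
  apart : ∀ {a b : α}, a ≠ b → b ∉ N a → (N a ∩ N b).card = 3
  total : Fintype.card α = 15

theorem bool_count {β : Type*} (S : Finset β) (g : β → Bool × Bool × Bool) (f : Bool × Bool × Bool → Bool) :
    (S.filter fun z => f (g z) = true).card =
      ∑ t : Bool × Bool × Bool, if f t then (S.filter fun z => g z = t).card else 0 := by
  rw [card_eq_sum_card_fiberwise (f := g) (t := univ) (fun z _ => mem_univ _)]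
  refine sum_congr rfl fun t _ => ?_
  rw [filter_filter]
  split_ifs with ht
  · exact congrArg Finset.card (filter_congr fun z _ => ⟨fun h => h.2, fun h => ⟨by rw [h]; exact ht, h⟩⟩)
  · rw [card_eq_zero, filter_eq_empty_iff]
    rintro z - ⟨h1, h2⟩
    exact ht (h2 ▸ h1)

namespace QuadGraph

variable {α : Type*} [Fintype α] [DecidableEq α] {N : α → Finset α}

/-- An independent five-set. -/
def IsFive (N : α → Finset α) (K : Finset α) : Prop := K.card = 5 ∧ ∀ a ∈ K, ∀ b ∈ K, b ∉ N a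

theorem eq_of_common (h : QuadGraph N) {a b z z' : α} (hab : b ∈ N a) (h1 : z ∈ N a) (h2 : z ∈ N b)
    (h3 : z' ∈ N a) (h4 : z' ∈ N b) : z = z' :=
  card_le_one.1 (h.adjacent hab).le z (mem_inter.2 ⟨h1, h2⟩) z' (mem_inter.2 ⟨h3, h4⟩)

/-- The points away from `P`. -/
def far (N : α → Finset α) (P : α) : Finset α := (insert P (N P))ᶜ

theorem mem_far {P Q : α} : Q ∈ far N P ↔ Q ≠ P ∧ Q ∉ N P := by simp [far]

theorem card_far (h : QuadGraph N) (P : α) : (far N P).card = 8 := by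
  rw [far, card_compl, card_insert_of_notMem (h.irrefl P), h.deg, h.total]

theorem card_near (h : QuadGraph N) {P Q : α} (hQ : Q ∈ far N P) : (N P ∩ N Q).card = 3 :=
  h.apart (mem_far.1 hQ).1.symm (mem_far.1 hQ).2

theorem card_far_nbr (h : QuadGraph N) {P Q : α} (hQ : Q ∈ far N P) : (N Q ∩ far N P).card = 3 := by
  have e : N Q ∩ far N P = N Q \ (N P ∩ N Q) := by
    ext z
    simp only [mem_inter, mem_far, mem_sdiff]
    refine ⟨fun ⟨h1, h2, h3⟩ => ⟨h1, fun hh => h3 hh.1⟩, fun ⟨h1, h2⟩ => ⟨h1, ?_, fun h3 => h2 ⟨h3, h1⟩⟩⟩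
    rintro rfl
    exact (mem_far.1 hQ).2 (h.symm h1)
  rw [e, card_sdiff_of_subset inter_subset_right, h.deg, h.card_near hQ]

/-- The partner of a neighbour. -/
theorem exists_partner (h : QuadGraph N) {P a : α} (ha : a ∈ N P) :
    ∃ b, b ∈ N P ∧ b ∈ N a ∧ ∀ z, z ∈ N P → z ∈ N a → z = b := by
  obtain ⟨b, hb⟩ := card_pos.1 (by rw [h.adjacent ha]; norm_num : 0 < (N P ∩ N a).card)
  obtain ⟨h1, h2⟩ := mem_inter.1 hb
  exact ⟨b, h1, h2, fun z hz hz' => h.eq_of_common ha hz hz' h1 h2⟩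

/-- Two neighbours of `P` in different triangles have two common neighbours away from `P`. -/
theorem card_two (h : QuadGraph N) {P a b : α} (ha : a ∈ N P) (hb : b ∈ N P) (hab : a ≠ b) (hn : b ∉ N a) :
    ((far N P).filter fun z => a ∈ N z ∧ b ∈ N z).card = 2 := by
  have e : (far N P).filter (fun z => a ∈ N z ∧ b ∈ N z) = (N a ∩ N b).erase P := by
    ext z
    simp only [mem_filter, mem_far, mem_erase, mem_inter]
    constructor
    · rintro ⟨⟨h1, -⟩, h2, h3⟩; exact ⟨h1, h.symm h2, h.symm h3⟩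
    · rintro ⟨h1, h2, h3⟩
      refine ⟨⟨h1, fun hz => hab ?_⟩, h.symm h2, h.symm h3⟩
      exact h.eq_of_common hz ha (h.symm h2) hb (h.symm h3)
  rw [e, card_erase_of_mem (mem_inter.2 ⟨h.symm ha, h.symm hb⟩), h.apart hab hn]

theorem twin (h : QuadGraph N) {P Q : α} (hQ : Q ∈ far N P) :
    ∃ Q' ∈ far N P, Q' ≠ Q ∧ ∀ a ∈ N P, (a ∈ N Q' ↔ a ∈ N Q) := by
  obtain ⟨a₁, a₂, a₃, h12, h13, h23, he⟩ := card_eq_three.1 (h.card_near hQ)
  have ha : ∀ a ∈ ({a₁, a₂, a₃} : Finset α), a ∈ N P ∧ a ∈ N Q := fun a haa => by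
    rw [← he] at haa; exact mem_inter.1 haa
  obtain ⟨p1, q1⟩ := ha a₁ (by simp)
  obtain ⟨p2, q2⟩ := ha a₂ (by simp)
  obtain ⟨p3, q3⟩ := ha a₃ (by simp)
  have hQP : Q ≠ P ∧ Q ∉ N P := mem_far.1 hQ
  -- no two of them are adjacent
  have hna : ∀ {a b : α}, a ∈ N P → a ∈ N Q → b ∈ N P → b ∈ N Q → b ∉ N a := by
    intro a b pa qa pb qb hb
    exact hQP.1 (h.eq_of_common hb (h.symm qa) (h.symm qb) (h.symm pa) (h.symm pb))
  obtain ⟨b₁, u1, v1, w1⟩ := h.exists_partner p1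
  obtain ⟨b₂, u2, v2, w2⟩ := h.exists_partner p2
  obtain ⟨b₃, u3, v3, w3⟩ := h.exists_partner p3
  have hab : ∀ {a b : α}, b ∈ N a → a ≠ b := fun {a b} hb e => h.irrefl a (by rwa [← e] at hb)
  have hxy : ∀ {a a' b b' : α}, a ∈ N P → b ∈ N P → b ∈ N a → a' ∈ N P → b' ∈ N P → b' ∈ N a' →
      a ≠ a' → a' ∉ N a → b ≠ b' ∧ a ≠ b' ∧ b' ∉ N a ∧ b' ∉ N b := by
    intro a a' b b' pa pb hb pa' pb' hb' hne hn
    have e1 : a ≠ b' := fun e => hn (by rw [e]; exact h.symm hb')
    have e2 : b ≠ b' := fun e => hne (h.eq_of_common pb pa (h.symm hb) pa' (by rw [e]; exact h.symm hb'))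
    refine ⟨e2, e1, fun hh => ?_, fun hh => ?_⟩
    · exact e2 (h.eq_of_common pa pb hb pb' hh)
    · exact e1 (h.eq_of_common pb pa (h.symm hb) pb' hh)
  obtain ⟨n12, m12, r12, s12⟩ := hxy p1 u1 v1 p2 u2 v2 h12 (hna p1 q1 p2 q2)
  obtain ⟨n13, m13, r13, s13⟩ := hxy p1 u1 v1 p3 u3 v3 h13 (hna p1 q1 p3 q3)
  obtain ⟨n23, m23, r23, s23⟩ := hxy p2 u2 v2 p3 u3 v3 h23 (hna p2 q2 p3 q3)
  obtain ⟨-, m21, r21, -⟩ := hxy p2 u2 v2 p1 u1 v1 h12.symm (hna p2 q2 p1 q1)
  obtain ⟨-, m31, r31, -⟩ := hxy p3 u3 v3 p1 u1 v1 h13.symm (hna p3 q3 p1 q1)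
  obtain ⟨-, m32, r32, -⟩ := hxy p3 u3 v3 p2 u2 v2 h23.symm (hna p3 q3 p2 q2)
  have hNP : N P = {a₁, b₁, a₂, b₂, a₃, b₃} := by
    refine (eq_of_subset_of_card_le ?_ ?_).symm
    · intro x hx
      simp only [mem_insert, mem_singleton] at hx
      rcases hx with rfl | rfl | rfl | rfl | rfl | rfl <;> assumption
    · rw [h.deg, card_insert_of_notMem (by simp [hab v1, h12, m12, h13, m13]),
        card_insert_of_notMem (by simp [m21.symm, n12, m31.symm, n13]),
        card_insert_of_notMem (by simp [hab v2, h23, m23]),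
        card_insert_of_notMem (by simp [m32.symm, n23]), card_pair (hab v3)]
  -- selection bits
  have hsel : ∀ z ∈ far N P, (a₁ ∈ N z ↔ b₁ ∉ N z) ∧ (a₂ ∈ N z ↔ b₂ ∉ N z) ∧ (a₃ ∈ N z ↔ b₃ ∉ N z) := by
    intro z hz
    have hnot : ∀ {a b : α}, a ∈ N P → b ∈ N P → b ∈ N a → a ∈ N z → b ∉ N z := by
      intro a b pa pb hb za zb
      exact (mem_far.1 hz).1 (h.eq_of_common hb (h.symm za) (h.symm zb) (h.symm pa) (h.symm pb))
    have hc := h.card_near hz
    rw [hNP] at hc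
    have e : (({a₁, b₁, a₂, b₂, a₃, b₃} : Finset α) ∩ N z).card =
        (if a₁ ∈ N z then 1 else 0) + (if b₁ ∈ N z then 1 else 0) + (if a₂ ∈ N z then 1 else 0) +
        (if b₂ ∈ N z then 1 else 0) + (if a₃ ∈ N z then 1 else 0) + (if b₃ ∈ N z then 1 else 0) := by
      rw [← filter_mem_eq_inter, card_filter, sum_insert (by simp [hab v1, h12, m12, h13, m13]),
        sum_insert (by simp [m21.symm, n12, m31.symm, n13]), sum_insert (by simp [hab v2, h23, m23]),
        sum_insert (by simp [m32.symm, n23]), sum_pair (hab v3)]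
      ring
    rw [e] at hc
    have hle : ∀ {a b : α}, a ∈ N P → b ∈ N P → b ∈ N a →
        (if a ∈ N z then 1 else 0) + (if b ∈ N z then 1 else 0) ≤ 1 := by
      intro a b pa pb hb
      by_cases za : a ∈ N z
      · rw [if_pos za, if_neg (hnot pa pb hb za)]
      · rw [if_neg za]; split_ifs <;> omega
    have k1 := hle p1 u1 v1
    have k2 := hle p2 u2 v2
    have k3 := hle p3 u3 v3
    refine ⟨?_, ?_, ?_⟩
    · by_cases A : a₁ ∈ N z <;> by_cases B : b₁ ∈ N z <;> simp only [A, B, if_true, if_false] at hc k1 ⊢ <;>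
        simp <;> omega
    · by_cases A : a₂ ∈ N z <;> by_cases B : b₂ ∈ N z <;> simp only [A, B, if_true, if_false] at hc k2 ⊢ <;>
        simp <;> omega
    · by_cases A : a₃ ∈ N z <;> by_cases B : b₃ ∈ N z <;> simp only [A, B, if_true, if_false] at hc k3 ⊢ <;>
        simp <;> omega
  let g : α → Bool × Bool × Bool := fun z => (decide (a₁ ∈ N z), decide (a₂ ∈ N z), decide (a₃ ∈ N z))
  let c : Bool → Bool → Bool → ℕ := fun i j k => ((far N P).filter fun z => g z = (i, j, k)).card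
  have hpair : ∀ (x y : α) (f : Bool × Bool × Bool → Bool), x ∈ N P → y ∈ N P → x ≠ y → y ∉ N x →
      (∀ z ∈ far N P, (f (g z) = true) ↔ (x ∈ N z ∧ y ∈ N z)) →
      ∑ t : Bool × Bool × Bool, (if f t then c t.1 t.2.1 t.2.2 else 0) = 2 := by
    intro x y f px py hne hn hf
    rw [← h.card_two px py hne hn, ← filter_congr hf, bool_count]
  have E5 := hpair a₁ a₃ (fun t => t.1 && t.2.2) p1 p3 h13 (hna p1 q1 p3 q3) (fun z _ => by simp [g])
  have E11 := hpair a₃ b₂ (fun t => !t.2.1 && t.2.2) p3 u2 m32 r32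
    (fun z hz => by simp [g, (hsel z hz).2.1, and_comm])
  simp only [Fintype.sum_prod_type, Fintype.sum_bool, Bool.not_true, Bool.not_false, Bool.and_true, Bool.and_false,
    if_true, if_false, Bool.false_eq_true, add_zero, zero_add] at E5 E11
  have hge : 2 ≤ c true true true := by
    have hc1 : 1 ≤ c true true true := card_pos.2 ⟨Q, mem_filter.2 ⟨hQ, by simp [g, q1, q2, q3]⟩⟩
    by_contra hlt
    -- third points of the lines through `Q`
    have hthird : ∀ {a : α}, a ∈ N P → a ∈ N Q → ∃ z ∈ far N P, z ∈ N Q ∧ z ∈ N a ∧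
        ∀ a' ∈ N P, a' ∈ N Q → a' ∈ N z → a' = a := by
      intro a pa qa
      obtain ⟨z, hz⟩ := card_pos.1 (by rw [h.adjacent qa]; norm_num : 0 < (N Q ∩ N a).card)
      obtain ⟨zq, za⟩ := mem_inter.1 hz
      refine ⟨z, mem_far.2 ⟨fun e => hQP.2 (h.symm (e ▸ zq)), fun zp => ?_⟩, zq, za, fun a' _ qa' za' => ?_⟩
      · exact hQP.1 (h.eq_of_common za (h.symm qa) (h.symm zq) (h.symm pa) (h.symm zp))
      · exact h.eq_of_common zq qa' za' qa (h.symm za)
    obtain ⟨z1, f1, zq1, za1, x1⟩ := hthird p1 q1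
    obtain ⟨z2, f2, zq2, za2, x2⟩ := hthird p2 q2
    obtain ⟨z3, f3, zq3, za3, x3⟩ := hthird p3 q3
    have A11 : a₁ ∈ N z1 := h.symm za1
    have A22 : a₂ ∈ N z2 := h.symm za2
    have A33 : a₃ ∈ N z3 := h.symm za3
    have A12 : a₂ ∉ N z1 := fun e => h12 (x1 a₂ p2 q2 e).symm
    have A13 : a₃ ∉ N z1 := fun e => h13 (x1 a₃ p3 q3 e).symm
    have A21 : a₁ ∉ N z2 := fun e => h12 (x2 a₁ p1 q1 e)
    have A23 : a₃ ∉ N z2 := fun e => h23 (x2 a₃ p3 q3 e).symm
    have A31 : a₁ ∉ N z3 := fun e => h13 (x3 a₁ p1 q1 e)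
    have A32 : a₂ ∉ N z3 := fun e => h23 (x3 a₂ p2 q2 e)
    have z12 : z1 ≠ z2 := fun e => A12 (e ▸ A22)
    have hn12 : z2 ∉ N z1 := fun e => by
      have := h.eq_of_common zq1 q1 A11 zq2 e
      exact (mem_far.1 f2).2 (this ▸ p1)
    have hn13 : z3 ∉ N z1 := fun e => by
      have := h.eq_of_common zq1 q1 A11 zq3 e
      exact (mem_far.1 f3).2 (this ▸ p1)
    have hB13 : b₃ ∈ N z1 := by by_contra hh; exact A13 ((hsel z1 f1).2.2.2 hh)
    have hB23 : b₃ ∈ N z2 := by by_contra hh; exact A23 ((hsel z2 f2).2.2.2 hh)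
    obtain ⟨W, hW⟩ := card_pos.1 (by
      rw [card_erase_of_mem, card_erase_of_mem (mem_inter.2 ⟨hB13, hB23⟩), h.apart z12 hn12]
      · norm_num
      · exact mem_erase.2 ⟨fun e => hQP.2 (e ▸ u3), mem_inter.2 ⟨h.symm zq1, h.symm zq2⟩⟩ :
      0 < (((N z1 ∩ N z2).erase b₃).erase Q).card)
    simp only [mem_erase, mem_inter] at hW
    obtain ⟨hWQ, hWb, hW1, hW2⟩ := hW
    have fW : W ∈ far N P := by
      refine mem_far.2 ⟨fun e => (mem_far.1 f1).2 (h.symm (e ▸ hW1)), fun hWP => hWb ?_⟩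
      rw [hNP] at hWP
      simp only [mem_insert, mem_singleton] at hWP
      rcases hWP with rfl | rfl | rfl | rfl | rfl | rfl
      · exact absurd hW2 A21
      · exact absurd hW1 ((hsel z1 f1).1.1 A11)
      · exact absurd hW1 A12
      · exact absurd hW2 ((hsel z2 f2).2.1.1 A22)
      · exact absurd hW1 A13
      · rfl
    have W1 : a₁ ∉ N W := fun e => hWQ (h.eq_of_common A11 hW1 (h.symm e) (h.symm zq1) (h.symm q1))
    have W2 : a₂ ∉ N W := fun e => hWQ (h.eq_of_common A22 hW2 (h.symm e) (h.symm zq2) (h.symm q2))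
    have W3 : a₃ ∈ N W := by
      by_contra hh
      have hb3 : b₃ ∈ N W := by by_contra hh'; exact hh ((hsel W fW).2.2.2 hh')
      have hb2 : b₂ ∈ N W := by by_contra hh'; exact W2 ((hsel W fW).2.1.2 hh')
      have hb2' : b₂ ∈ N z1 := by by_contra hh'; exact A12 ((hsel z1 f1).2.1.2 hh')
      exact n23 (h.eq_of_common hW1 hb2' hb2 hB13 hb3)
    have h2 : 2 ≤ c false false true := by
      refine Finset.one_lt_card.2 ⟨W, mem_filter.2 ⟨fW, by simp [g, W1, W2, W3]⟩, z3,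
        mem_filter.2 ⟨f3, by simp [g, A31, A32, A33]⟩, fun e => hn13 (e ▸ hW1)⟩
    clear_value c
    omega
  obtain ⟨Q', hQ', hne⟩ := exists_mem_ne (s := (far N P).filter fun z =>
    g z = (true, true, true))
    (by simp only [c] at hge; omega) Q
  simp only [mem_filter, g, Prod.mk.injEq, decide_eq_true_eq] at hQ'
  obtain ⟨hQ'f, t1, t2, t3⟩ := hQ'
  refine ⟨Q', hQ'f, hne, fun a pa => ?_⟩
  obtain ⟨o1, o2, o3⟩ := hsel Q hQ
  obtain ⟨o1', o2', o3'⟩ := hsel Q' hQ'f
  rw [hNP] at pa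
  simp only [mem_insert, mem_singleton] at pa
  rcases pa with rfl | rfl | rfl | rfl | rfl | rfl
  · exact ⟨fun _ => q1, fun _ => t1⟩
  · exact ⟨fun e => absurd e (o1'.1 t1), fun e => absurd e (o1.1 q1)⟩
  · exact ⟨fun _ => q2, fun _ => t2⟩
  · exact ⟨fun e => absurd e (o2'.1 t2), fun e => absurd e (o2.1 q2)⟩
  · exact ⟨fun _ => q3, fun _ => t3⟩
  · exact ⟨fun e => absurd e (o3'.1 t3), fun e => absurd e (o3.1 q3)⟩

/-- The third points of the lines through `Q` exhaust its neighbours away from `P`. -/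
theorem far_nbr_indep (h : QuadGraph N) {P Q : α} (hQ : Q ∈ far N P) :
    ∀ z ∈ N Q ∩ far N P, ∀ z' ∈ N Q ∩ far N P, z' ∉ N z := by
  have hthird : ∀ a : ↥(N P ∩ N Q), ∃ z ∈ N Q ∩ far N P, (a : α) ∈ N z := by
    rintro ⟨a, ha⟩
    obtain ⟨pa, qa⟩ := mem_inter.1 ha
    obtain ⟨z, hz⟩ := card_pos.1 (by rw [h.adjacent qa]; norm_num : 0 < (N Q ∩ N a).card)
    obtain ⟨zq, za⟩ := mem_inter.1 hz
    refine ⟨z, mem_inter.2 ⟨zq, mem_far.2 ⟨fun e => (mem_far.1 hQ).2 (h.symm (e ▸ zq)), fun zp => ?_⟩⟩, h.symm za⟩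
    exact (mem_far.1 hQ).1 (h.eq_of_common za (h.symm qa) (h.symm zq) (h.symm pa) (h.symm zp))
  choose f hf hfa using hthird
  have hinj : Function.Injective fun a => (⟨f a, hf a⟩ : ↥(N Q ∩ far N P)) := by
    intro a b e
    have e' : f a = f b := congrArg Subtype.val e
    have zq := (mem_inter.1 (hf a)).1
    exact Subtype.ext (h.eq_of_common zq (mem_inter.1 a.2).2 (hfa a) (mem_inter.1 b.2).2 (e' ▸ hfa b))
  have hsurj := ((Fintype.bijective_iff_injective_and_card _).2 ⟨hinj, by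
    simp only [Fintype.card_coe]; rw [h.card_near hQ, h.card_far_nbr hQ]⟩).2
  intro z hz z' hz' hzz'
  obtain ⟨a, ha⟩ := hsurj ⟨z, hz⟩
  have ha' : f a = z := congrArg Subtype.val ha
  have := h.eq_of_common (mem_inter.1 hz).1 (mem_inter.1 a.2).2 (ha' ▸ hfa a) (mem_inter.1 hz').1 hzz'
  exact (mem_far.1 (mem_inter.1 hz').2).2 (this ▸ (mem_inter.1 a.2).1)

theorem five_through (h : QuadGraph N) {P Q : α} (hPQ : P ≠ Q) (hn : Q ∉ N P) :
    ∃! K : Finset α, IsFive N K ∧ P ∈ K ∧ Q ∈ K := by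
  have hQ : Q ∈ far N P := mem_far.2 ⟨hPQ.symm, hn⟩
  obtain ⟨Q', hQ', hne, hsame⟩ := h.twin hQ
  have hnear : N P ∩ N Q' = N P ∩ N Q := by
    ext a; simp only [mem_inter]; exact ⟨fun ⟨p, q⟩ => ⟨p, (hsame a p).1 q⟩, fun ⟨p, q⟩ => ⟨p, (hsame a p).2 q⟩⟩
  have hQQ' : Q' ∉ N Q := fun e => by
    have hsub : N P ∩ N Q ⊆ N Q ∩ N Q' := fun a ha =>
      mem_inter.2 ⟨(mem_inter.1 ha).2, (mem_inter.1 (hnear ▸ ha : a ∈ N P ∩ N Q')).2⟩
    have := card_le_card hsub
    rw [h.card_near hQ, h.adjacent e] at this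
    omega
  have hsub : N P ∩ N Q = N Q ∩ N Q' := eq_of_subset_of_card_le (fun a ha =>
      mem_inter.2 ⟨(mem_inter.1 ha).2, (mem_inter.1 (hnear ▸ ha : a ∈ N P ∩ N Q')).2⟩)
    (by rw [h.card_near hQ, h.apart hne.symm hQQ'])
  have hdisj : ∀ z ∈ N Q' ∩ far N P, z ∉ N Q := fun z hz hzQ => by
    have : z ∈ N P ∩ N Q := by rw [hsub]; exact mem_inter.2 ⟨hzQ, (mem_inter.1 hz).1⟩
    exact (mem_far.1 (mem_inter.1 hz).2).2 (mem_inter.1 this).1
  have hQn : Q ∉ N Q' ∩ far N P := fun e => hQQ' (h.symm (mem_inter.1 e).1)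
  have hPn : P ∉ insert Q (N Q' ∩ far N P) := by
    simp only [mem_insert, not_or]
    exact ⟨hPQ, fun e => (mem_far.1 (mem_inter.1 e).2).1 rfl⟩
  have hcover : far N P = insert Q (insert Q' ((N Q ∩ far N P) ∪ (N Q' ∩ far N P))) := by
    refine (eq_of_subset_of_card_le ?_ ?_).symm
    · simp only [insert_subset_iff, union_subset_iff]
      exact ⟨hQ, hQ', inter_subset_right, inter_subset_right⟩
    · rw [h.card_far, card_insert_of_notMem, card_insert_of_notMem, card_union_of_disjoint,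
        h.card_far_nbr hQ, h.card_far_nbr hQ']
      · rw [disjoint_left]; exact fun z h1 h2 => hdisj z h2 (mem_inter.1 h1).1
      · simp [hQQ', h.irrefl]
      · simp only [mem_insert, mem_union, mem_inter, not_or, not_and]
        exact ⟨hne.symm, fun e => absurd e (h.irrefl Q), fun e => absurd (h.symm e) hQQ'⟩
  refine ⟨insert P (insert Q (N Q' ∩ far N P)), ⟨⟨?_, ?_⟩, by simp, by simp⟩, ?_⟩
  · rw [card_insert_of_notMem hPn, card_insert_of_notMem hQn, h.card_far_nbr hQ']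
  · have hout : ∀ z ∈ insert Q (N Q' ∩ far N P), z ∉ N P ∧ P ∉ N z := fun z hz => by
      have hzf : z ∈ far N P := (mem_insert.1 hz).elim (fun e => e ▸ hQ) fun e => (mem_inter.1 e).2
      exact ⟨(mem_far.1 hzf).2, fun e => (mem_far.1 hzf).2 (h.symm e)⟩
    intro a ha b hb
    rcases mem_insert.1 ha with rfl | ha <;> rcases mem_insert.1 hb with rfl | hb
    · exact h.irrefl _
    · exact (hout b hb).1
    · exact (hout a ha).2
    · rcases mem_insert.1 ha with e1 | ha' <;> rcases mem_insert.1 hb with e2 | hb'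
      · rw [e1, e2]; exact h.irrefl _
      · rw [e1]; exact hdisj b hb'
      · rw [e2]; exact fun e => hdisj a ha' (h.symm e)
      · exact h.far_nbr_indep hQ' a ha' b hb'
  · rintro K ⟨⟨hK5, hKi⟩, hPK, hQK⟩
    refine (eq_of_subset_of_card_le ?_ ?_)
    · intro z hz
      rcases eq_or_ne z P with rfl | hzP
      · exact mem_insert_self _ _
      have hzf : z ∈ far N P := mem_far.2 ⟨hzP, hKi P hPK z hz⟩
      rw [hcover] at hzf
      simp only [mem_insert, mem_union] at hzf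
      rcases hzf with rfl | rfl | hzf | hzf
      · simp
      · exfalso
        have hle : K ⊆ {P, Q, z} := by
          intro w hw
          rcases eq_or_ne w P with rfl | hwP
          · simp
          have hwf : w ∈ far N P := mem_far.2 ⟨hwP, hKi P hPK w hw⟩
          rw [hcover] at hwf
          simp only [mem_insert, mem_union] at hwf
          rcases hwf with rfl | rfl | hwf | hwf
          · simp
          · simp
          · exact absurd (mem_inter.1 hwf).1 (hKi Q hQK w hw)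
          · exact absurd (mem_inter.1 hwf).1 (hKi z hz w hw)
        have := (card_le_card hle).trans card_le_three
        omega
      · exact absurd (mem_inter.1 hzf).1 (hKi Q hQK z hz)
      · simp [hzf]
    · rw [card_insert_of_notMem hPn, card_insert_of_notMem hQn, h.card_far_nbr hQ', hK5]

open Classical in
/-- The independent five-sets. -/
noncomputable def fives (N : α → Finset α) : Finset (Finset α) := univ.filter (IsFive N)

theorem mem_fives {K : Finset α} : K ∈ fives N ↔ IsFive N K := by simp [fives]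

theorem card_fives_pair (h : QuadGraph N) {P Q : α} (hPQ : P ≠ Q) (hn : Q ∉ N P) :
    ((fives N).filter fun K => P ∈ K ∧ Q ∈ K).card = 1 := by
  obtain ⟨K, hK, hu⟩ := h.five_through hPQ hn
  refine card_eq_one.2 ⟨K, eq_singleton_iff_unique_mem.2 ⟨by simp [mem_fives, hK.1, hK.2], fun K' hK' => ?_⟩⟩
  simp only [mem_filter, mem_fives] at hK'
  exact hu K' hK'

theorem card_fives_point (h : QuadGraph N) (P : α) : ((fives N).filter fun K => P ∈ K).card = 2 := by
  have hcnt := sum_card_bipartiteAbove_eq_sum_card_bipartiteBelow (s := (fives N).filter fun K => P ∈ K)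
    (t := far N P) (fun K Q => Q ∈ K)
  have hl : ∀ K ∈ (fives N).filter (fun K => P ∈ K),
      ((far N P).bipartiteAbove (fun K Q => Q ∈ K) K).card = 4 := by
    intro K hK
    obtain ⟨hK, hPK⟩ := mem_filter.1 hK
    obtain ⟨h5, hi⟩ := mem_fives.1 hK
    have e : (far N P).bipartiteAbove (fun K Q => Q ∈ K) K = K.erase P := by
      ext z
      simp only [bipartiteAbove, mem_filter, mem_far, mem_erase]
      exact ⟨fun hz => ⟨hz.1.1, hz.2⟩, fun hz => ⟨⟨hz.1, hi P hPK z hz.2⟩, hz.2⟩⟩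
    rw [e, card_erase_of_mem hPK, h5]
  have hr : ∀ Q ∈ far N P,
      (((fives N).filter fun K => P ∈ K).bipartiteBelow (fun K Q => Q ∈ K) Q).card = 1 := by
    intro Q hQ
    rw [bipartiteBelow, filter_filter]
    exact h.card_fives_pair (mem_far.1 hQ).1.symm (mem_far.1 hQ).2
  rw [sum_congr rfl hl, sum_congr rfl hr, sum_const, sum_const, h.card_far, smul_eq_mul, smul_eq_mul] at hcnt
  omega

end QuadGraph

end CfsgLib.SRG77
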