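import Cfsg.Agent.SRG77.Kernel
import Cfsg.Agent.SRG77.Quad

/-!
The twenty-two cocliques of size 21 of a strongly regular graph with parameters (77, 16, 0, 4).
-/

set_option autoImplicit false

namespace CfsgLib.SRG77

open Finset

variable {V : Type*} [Fintype V] [DecidableEq V] (G : SimpleGraph V) [DecidableRel G.Adj]

/-- The independent sets of 21 vertices. -/
noncomputable def cocliques : Finset (Finset V) := by
  classical
  exact univ.filter fun C => C.card = 21 ∧ ∀ a ∈ C, ∀ b ∈ C, ¬ G.Adj a b

theorem mem_cocliques {C : Finset V} :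
    C ∈ cocliques G ↔ C.card = 21 ∧ ∀ a ∈ C, ∀ b ∈ C, ¬ G.Adj a b := by simp [cocliques]

variable {G} (hG : G.IsSRGWith 77 16 0 4) (x : V)

/-- The class of a vertex away from `x`. -/
noncomputable def cls (G : SimpleGraph V) [DecidableRel G.Adj] (x y : V) : Finset V := by
  classical
  exact (away G x).filter fun z => phi G x y z = 0

theorem mem_cls {y z : V} : z ∈ cls G x y ↔ z ∈ away G x ∧ phi G x y z = 0 := by simp [cls]

/-- The classes. -/
abbrev Cls (G : SimpleGraph V) [DecidableRel G.Adj] (x : V) : Type _ := {c // c ∈ (away G x).image (cls G x)}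

/-- A member of a class. -/
noncomputable def rep (c : Cls G x) : V := Classical.choose (Finset.mem_image.1 c.2)

theorem rep_mem (c : Cls G x) : rep x c ∈ away G x := (Classical.choose_spec (Finset.mem_image.1 c.2)).1

theorem cls_rep (c : Cls G x) : cls G x (rep x c) = c.1 := (Classical.choose_spec (Finset.mem_image.1 c.2)).2

/-- The class of a vertex. -/
noncomputable def mkCls {y : V} (hy : y ∈ away G x) : Cls G x := ⟨cls G x y, Finset.mem_image_of_mem _ hy⟩

/-- The relation `φ = -2` between classes. -/
noncomputable def nb (G : SimpleGraph V) [DecidableRel G.Adj] (x : V) (c : Cls G x) : Finset (Cls G x) := by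
  classical
  exact univ.filter fun d => phi G x (rep x c) (rep x d) = -2

theorem mem_nb {c d : Cls G x} : d ∈ nb G x c ↔ phi G x (rep x c) (rep x d) = -2 := by simp [nb]

include hG

theorem cls_eq {y z : V} (hy : y ∈ away G x) (hz : z ∈ away G x) (h : phi G x y z = 0) :
    cls G x y = cls G x z := by
  ext w
  simp only [mem_cls]
  exact and_congr_right fun hw => by rw [phi_congr hG x hy hz h hw]

theorem mem_self {y : V} (hy : y ∈ away G x) : y ∈ cls G x y :=
  (mem_cls x).2 ⟨hy, phi_self hG x hy⟩

theorem phi_eq_zero_iff {y z : V} (hy : y ∈ away G x) (hz : z ∈ away G x) :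
    phi G x y z = 0 ↔ cls G x y = cls G x z :=
  ⟨cls_eq hG x hy hz, fun h => ((mem_cls x).1 (h ▸ mem_self hG x hz)).2⟩

theorem rep_mk {y : V} (hy : y ∈ away G x) : phi G x (rep x (mkCls x hy)) y = 0 :=
  (phi_eq_zero_iff hG x (rep_mem x _) hy).2 (cls_rep x _)

theorem card_cls {y : V} (hy : y ∈ away G x) : (cls G x y).card = 4 := by
  have h := sum_same hG x hy
  simp only [same, sum_boole] at h
  rw [cls]
  exact_mod_cast h

theorem sum_classes (f : V → ℤ) (hf : ∀ y ∈ away G x, ∀ z ∈ away G x, phi G x y z = 0 → f y = f z) :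
    ∑ z ∈ away G x, f z = 4 * ∑ c : Cls G x, f (rep x c) := by
  rw [← sum_fiberwise_of_maps_to (g := cls G x) (t := (away G x).image (cls G x))
    (fun z hz => Finset.mem_image_of_mem _ hz), ← Finset.sum_coe_sort ((away G x).image (cls G x)), mul_sum]
  refine sum_congr rfl fun c _ => ?_
  have e : (away G x).filter (fun z => cls G x z = c.1) = cls G x (rep x c) := by
    ext z
    rw [mem_filter, mem_cls, ← cls_rep x c]
    exact and_congr_right fun hz => by rw [phi_eq_zero_iff hG x (rep_mem x c) hz, eq_comm]
  rw [e, sum_congr rfl (g := fun _ => f (rep x c)) (fun z hz => (hf _ (rep_mem x c) _ ((mem_cls x).1 hz).1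
    ((mem_cls x).1 hz).2).symm), sum_const, card_cls hG x (rep_mem x c)]
  norm_num

theorem quad : QuadGraph (nb G x) := by
  classical
  have hopp : ∀ c : Cls G x, ((nb G x c).card : ℤ) = ∑ d : Cls G x, opp G x (rep x c) (rep x d) := fun c => by
    simp only [opp, sum_boole, nb]
  have hmul : ∀ c d : Cls G x, ((nb G x c ∩ nb G x d).card : ℤ) =
      ∑ e : Cls G x, opp G x (rep x c) (rep x e) * opp G x (rep x d) (rep x e) := fun c d => by
    have : ∀ e : Cls G x, opp G x (rep x c) (rep x e) * opp G x (rep x d) (rep x e) =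
        if phi G x (rep x c) (rep x e) = -2 ∧ phi G x (rep x d) (rep x e) = -2 then 1 else 0 := fun e => by
      unfold opp; split_ifs <;> simp_all
    simp only [this, sum_boole, nb, filter_and]
  have hinv : ∀ c : Cls G x, ∀ y ∈ away G x, ∀ z ∈ away G x, phi G x y z = 0 →
      opp G x (rep x c) y = opp G x (rep x c) z := fun c y hy z hz h => by
    simp only [opp, phi_comm x (rep x c), phi_congr hG x hy hz h (rep_mem x c)]
  have hne : ∀ c d : Cls G x, c ≠ d → phi G x (rep x c) (rep x d) ≠ 0 := fun c d hcd h => hcd (Subtype.ext (by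
    rw [← cls_rep x c, ← cls_rep x d]; exact cls_eq hG x (rep_mem x c) (rep_mem x d) h))
  have hcount : ∀ c d : Cls G x, 4 * ((nb G x c ∩ nb G x d).card : ℤ) =
      20 + 4 * same G x (rep x c) (rep x d) + 8 * phi G x (rep x c) (rep x d) := fun c d => by
    rw [hmul, ← sum_opp_mul hG x (rep_mem x c) (rep_mem x d)]
    exact (sum_classes hG x (fun z => opp G x (rep x c) z * opp G x (rep x d) z)
      fun y hy z hz h => by simp only [hinv c y hy z hz h, hinv d y hy z hz h]).symm
  refine ⟨fun {a b} h => ?_, fun a h => ?_, fun a => ?_, fun {a b} h => ?_, fun {a b} hab h => ?_, ?_⟩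
  · rw [mem_nb] at h ⊢; rwa [phi_comm]
  · rw [mem_nb, phi_self hG x (rep_mem x a)] at h; norm_num at h
  · have := sum_classes hG x (fun z => opp G x (rep x a) z) (hinv a)
    rw [sum_opp hG x (rep_mem x a), ← hopp] at this
    omega
  · have := hcount a b
    rw [mem_nb] at h
    simp [same, h] at this
    omega
  · have := hcount a b
    rw [mem_nb] at h
    have hv := ((phi_values hG x (rep_mem x a) (rep_mem x b)).resolve_left (hne a b hab)).resolve_right h
    simp [same, hv] at this
    omega
  · have := sum_classes hG x (fun _ => (1 : ℤ)) (fun _ _ _ _ _ => rfl)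
    rw [sum_const, sum_const, card_away hG x, card_univ, nsmul_eq_mul, nsmul_eq_mul, mul_one, mul_one] at this
    exact_mod_cast (by omega : (Fintype.card (Cls G x) : ℤ) = 15)

omit hG in
/-- The set of vertices belonging to a family of classes, with `x`. -/
noncomputable def lift (G : SimpleGraph V) [DecidableRel G.Adj] (x : V) (K : Finset (Cls G x)) : Finset V :=
  insert x (K.biUnion fun c => c.1)

theorem mem_class {c : Cls G x} {z : V} : z ∈ c.1 ↔ ∃ hz : z ∈ away G x, mkCls x hz = c := by
  constructor
  · intro h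
    rw [← cls_rep x c, mem_cls] at h
    exact ⟨h.1, Subtype.ext (by
      show cls G x z = c.1
      rw [← cls_eq hG x (rep_mem x c) h.1 h.2, cls_rep])⟩
  · rintro ⟨hz, rfl⟩
    exact mem_self hG x hz

theorem lift_mem {K : Finset (Cls G x)} (hK : QuadGraph.IsFive (nb G x) K) :
    lift G x K ∈ cocliques G ∧ x ∈ lift G x K := by
  classical
  refine ⟨(mem_cocliques G).2 ⟨?_, ?_⟩, mem_insert_self _ _⟩
  · rw [lift, card_insert_of_notMem, card_biUnion]
    · rw [sum_congr rfl fun c _ => by rw [← cls_rep x c, card_cls hG x (rep_mem x c)], sum_const, hK.1]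
      rfl
    · intro c _ d _ hcd
      rw [Function.onFun, disjoint_left]
      intro z hc hd
      obtain ⟨hz, e⟩ := (mem_class hG x).1 hc
      obtain ⟨_, e'⟩ := (mem_class hG x).1 hd
      exact hcd (e.symm.trans e')
    · simp only [mem_biUnion, not_exists, not_and]
      intro c _ h
      obtain ⟨hz, -⟩ := (mem_class hG x).1 h
      exact ((mem_away x).1 hz).1 rfl
  · have hz : ∀ z ∈ lift G x K, z = x ∨ ∃ hz : z ∈ away G x, mkCls x hz ∈ K := by
      intro z hz
      simp only [lift, mem_insert, mem_biUnion] at hz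
      rcases hz with rfl | ⟨c, hc, h⟩
      · exact Or.inl rfl
      · obtain ⟨hz, rfl⟩ := (mem_class hG x).1 h
        exact Or.inr ⟨hz, hc⟩
    intro a ha b hb hab
    rcases hz a ha with rfl | ⟨ha', hca⟩ <;> rcases hz b hb with rfl | ⟨hb', hcb⟩
    · exact hab.ne rfl
    · exact ((mem_away a).1 hb').2 hab
    · exact ((mem_away b).1 ha').2 hab.symm
    · apply hK.2 _ hca _ hcb
      rw [mem_nb, phi_congr hG x (rep_mem x _) ha' (rep_mk hG x ha') (rep_mem x _), phi_comm,
        phi_congr hG x (rep_mem x _) hb' (rep_mk hG x hb') ha', phi_of_adj hG x hab.symm]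

/-- A coclique through `x` consists of whole classes. -/
theorem closed {C : Finset V} (hC : C ∈ cocliques G) (hx : x ∈ C) {y z : V} (hy : y ∈ away G x)
    (hz : z ∈ away G x) (h : phi G x y z = 0) : y ∈ C ↔ z ∈ C := by
  classical
  obtain ⟨h21, hind⟩ := (mem_cocliques G).1 hC
  obtain ⟨hyx, hy'⟩ := (mem_away x).1 hy
  obtain ⟨hzx, hz'⟩ := (mem_away x).1 hz
  let o : V → ℤ := fun u => if u ∈ C then 1 else 0
  have ho : ∑ u, o u = 21 := by simp [o, sum_boole, filter_mem_eq_inter, h21]
  have hin : ∀ u ∈ C, ∑ w, adj G u w * o w = 0 := fun u hu => sum_eq_zero fun w _ => by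
    by_cases hw : w ∈ C
    · simp [o, hw, adj_zero G (hind u hu w hw)]
    · simp [o, hw]
  have hh := high_psd hG o (sum_eq_zero fun u _ => by
    by_cases hu : u ∈ C
    · rw [hin u hu, ho]; simp [o, hu]
    · simp [o, hu])
  have hlo : ∀ u, low G o u = -24 + 88 * o u := fun u => by
    have := hh u
    rw [ho] at this
    rw [low, ho]
    by_cases hu : u ∈ C
    · rw [hin u hu]; simp [o, hu]
    · simp [o, hu] at this ⊢; linarith
  -- the kernel vector of `y` and `z`
  let v : V → ℤ := fun u => 2 * (if u = y then 1 else 0) - 2 * (if u = z then 1 else 0) +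
    adj G x u * (adj G y u - adj G z u)
  have hsum : ∑ u, v u = 0 := by
    simp only [v, mul_sub, sum_add_distrib, sum_sub_distrib, ← mul_sum, sum_near hG x hy, sum_near hG x hz]
    simp
  have hA : ∀ u, ∑ w, adj G u w * v w = 2 * adj G u y - 2 * adj G u z + kk G x u y - kk G x u z := by
    intro u
    simp only [v, kk, mul_add, mul_sub, sum_add_distrib, sum_sub_distrib, mul_ite, mul_one, mul_zero,
      Finset.sum_ite_eq', mem_univ, if_true]
    simp only [mul_comm (adj G x _) (adj G u _)]
    ring_nf
  have hv0 : ∀ u, low G v u = 0 := by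
    intro u
    by_cases hu : G.Adj x u
    · have e : ∀ y', kk G x u y' = 0 := fun y' => sum_eq_zero fun n _ => by
        have := adj_near hG x u n
        rw [adj_one G hu, one_mul] at this
        rw [mul_comm (adj G x n), this, zero_mul]
      have huy : u ≠ y := fun e => hy' (e ▸ hu)
      have huz : u ≠ z := fun e => hz' (e ▸ hu)
      rw [low, hA, hsum, e, e]
      simp [v, huy, huz, adj_one G hu, adj_comm G u y, adj_comm G u z]
      ring
    · have hlow : low G v u = 11 * (phi G x y u - phi G x z u) := by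
        rw [low, hA, hsum, phi_comm x y u, phi_comm x z u]
        simp only [phi, v, adj_zero G hu]
        ring
      rcases eq_or_ne u x with rfl | hux
      · rw [low, hA, hsum]
        have k0 : ∀ w ∈ away G u, kk G u u w = 4 := fun w hw => by
          rw [kk, ← sum_near hG u hw]
          exact sum_congr rfl fun n _ => by rw [adj_sq]
        simp [v, hyx.symm, hzx.symm, adj_self, adj_zero G hy', adj_zero G hz', k0 y hy, k0 z hz]
      · rw [hlow, phi_congr hG x hy hz h ((mem_away x).2 ⟨hux, hu⟩), sub_self, mul_zero]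
  have hkey := low_comm (G := G) o v
  simp only [hv0, mul_zero, sum_const_zero, hlo, mul_add, sum_add_distrib, ← sum_mul, hsum, zero_mul,
    zero_add] at hkey
  have hvo : ∑ u, v u * (88 * o u) = 88 * (2 * o y - 2 * o z) := by
    have : ∀ u, v u * (88 * o u) = (if u = y then 1 else 0) * (176 * o u) - (if u = z then 1 else 0) * (176 * o u) +
        88 * ((adj G y u - adj G z u) * (adj G x u * o u)) := fun u => by simp only [v]; ring
    have hxo : ∀ u, adj G x u * o u = 0 := fun u => by
      by_cases hu : u ∈ C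
      · simp [adj_zero G (hind x hx u hu)]
      · simp [o, hu]
    simp only [this, hxo, mul_zero, add_zero, sum_sub_distrib, sum_delta]
    ring
  rw [hvo] at hkey
  have hoy : o y = o z := by linarith
  simp only [o] at hoy
  split_ifs at hoy <;> simp_all

/-- Classes in relation `φ = -2` contain an edge. -/
theorem exists_edge {y z : V} (hy : y ∈ away G x) (hz : z ∈ away G x) (h : phi G x y z = -2) :
    ∃ w ∈ cls G x z, G.Adj y w := by
  classical
  by_contra hc
  push Not at hc
  have hk : ∀ w ∈ cls G x z, kk G x y w = 2 := fun w hw => by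
    obtain ⟨hwa, hw0⟩ := (mem_cls x).1 hw
    have e : phi G x y w = -2 := by
      rw [phi_comm x y w, ← phi_congr hG x hz hwa hw0 hy, phi_comm, h]
    have hne : y ≠ w := fun e' => by rw [e', phi_self hG x hwa] at e; norm_num at e
    simp [phi, hne, adj_zero G (hc w hw)] at e
    linarith
  have hle : ∀ n, ∑ w ∈ cls G x z, adj G x n * adj G y n * adj G w n ≤ adj G x n * adj G y n := by
    intro n
    rw [← mul_sum]
    by_cases hxn : G.Adj x n
    swap
    · simp [adj_zero G hxn]
    refine mul_le_of_le_one_right (mul_nonneg (adj_nonneg G x n) (adj_nonneg G y n)) ?_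
    simp only [adj, sum_boole, Nat.cast_le_one]
    refine card_le_one.2 fun a ha b hb => ?_
    simp only [mem_filter] at ha hb
    by_contra hab
    obtain ⟨haa, ha0⟩ := (mem_cls x).1 ha.1
    obtain ⟨hba, hb0⟩ := (mem_cls x).1 hb.1
    have h0 : phi G x a b = 0 := by rw [← phi_congr hG x hz haa ha0 hba]; exact hb0
    have hn : ¬ G.Adj a b := fun e => by rw [phi_of_adj hG x e] at h0; norm_num at h0
    simp [phi, hab, adj_zero G hn] at h0
    have h1 : adj G x n * adj G a n * adj G b n = 0 :=
      (sum_eq_zero_iff_of_nonneg fun m _ => mul_nonneg (mul_nonneg (adj_nonneg G x m) (adj_nonneg G a m))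
        (adj_nonneg G b m)).1 h0 n (mem_univ _)
    rw [adj_one G hxn, adj_one G ha.2, adj_one G hb.2] at h1
    norm_num at h1
  have h8 : ∑ w ∈ cls G x z, kk G x y w = 8 := by
    rw [sum_congr rfl hk, sum_const, card_cls hG x hz]
    norm_num
  simp only [kk] at h8
  rw [sum_comm] at h8
  have := sum_le_sum (s := univ) fun n _ => hle n
  rw [h8, sum_near hG x hy] at this
  norm_num at this

/-- The classes of a coclique through `x`. -/
theorem exists_five {C : Finset V} (hC : C ∈ cocliques G) (hx : x ∈ C) :
    ∃ K, QuadGraph.IsFive (nb G x) K ∧ lift G x K = C := by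
  classical
  obtain ⟨h21, hind⟩ := (mem_cocliques G).1 hC
  have haway : ∀ z ∈ C, z ≠ x → z ∈ away G x := fun z hz hzx => (mem_away x).2 ⟨hzx, hind x hx z hz⟩
  let K : Finset (Cls G x) := univ.filter fun c => rep x c ∈ C
  have hlift : lift G x K = C := by
    ext z
    simp only [lift, mem_insert, mem_biUnion, K, mem_filter, mem_univ, true_and]
    constructor
    · rintro (rfl | ⟨c, hc, hzc⟩)
      · exact hx
      · obtain ⟨hz, rfl⟩ := (mem_class hG x).1 hzc
        exact (closed hG x hC hx (rep_mem x _) hz (rep_mk hG x hz)).1 hc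
    · intro hz
      by_cases hzx : z = x
      · exact Or.inl hzx
      · have hza := haway z hz hzx
        exact Or.inr ⟨mkCls x hza, (closed hG x hC hx (rep_mem x _) hza (rep_mk hG x hza)).2 hz,
          mem_self hG x hza⟩
  refine ⟨K, ⟨?_, fun a ha b hb hab => ?_⟩, hlift⟩
  · have h := congrArg Finset.card hlift
    rw [h21, lift, card_insert_of_notMem, card_biUnion,
      sum_congr rfl fun c _ => by rw [← cls_rep x c, card_cls hG x (rep_mem x c)], sum_const, smul_eq_mul] at h
    · omega
    · intro c _ d _ hcd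
      rw [Function.onFun, disjoint_left]
      intro z hc hd
      obtain ⟨hz, e⟩ := (mem_class hG x).1 hc
      obtain ⟨_, e'⟩ := (mem_class hG x).1 hd
      exact hcd (e.symm.trans e')
    · simp only [mem_biUnion, not_exists, not_and]
      intro c _ hc
      obtain ⟨hz, -⟩ := (mem_class hG x).1 hc
      exact ((mem_away x).1 hz).1 rfl
  · simp only [K, mem_filter, mem_univ, true_and] at ha hb
    obtain ⟨w, hw, hadj⟩ := exists_edge hG x (rep_mem x a) (rep_mem x b) ((mem_nb x).1 hab)
    obtain ⟨hwa, hw0⟩ := (mem_cls x).1 hw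
    exact hind _ ha _ ((closed hG x hC hx (rep_mem x b) hwa hw0).1 hb) hadj

theorem lift_inj {K K' : Finset (Cls G x)} (h : lift G x K = lift G x K') : K = K' := by
  classical
  have key : ∀ (K : Finset (Cls G x)) (c : Cls G x), c ∈ K ↔ rep x c ∈ lift G x K := by
    intro K c
    simp only [lift, mem_insert, mem_biUnion]
    refine ⟨fun hc => Or.inr ⟨c, hc, by rw [← cls_rep x c]; exact mem_self hG x (rep_mem x c)⟩, ?_⟩
    rintro (e | ⟨d, hd, hc⟩)
    · exact absurd e ((mem_away x).1 (rep_mem x c)).1
    · obtain ⟨hz, e⟩ := (mem_class hG x).1 hc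
      have : mkCls x hz = c := Subtype.ext (cls_rep x c)
      rwa [← this, e]
  ext c
  rw [key K c, key K' c, h]

theorem card_through : ((cocliques G).filter fun C => x ∈ C).card = 6 := by
  classical
  have hq := quad hG x
  have e : ((cocliques G).filter fun C => x ∈ C) = (QuadGraph.fives (nb G x)).image (lift G x) := by
    ext C
    simp only [mem_filter, Finset.mem_image, QuadGraph.mem_fives]
    constructor
    · exact fun ⟨hC, hx⟩ => exists_five hG x hC hx
    · rintro ⟨K, hK, rfl⟩; exact lift_mem hG x hK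
  rw [e, card_image_of_injective _ fun _ _ h => lift_inj hG x h]
  have h := sum_card_bipartiteAbove_eq_sum_card_bipartiteBelow (s := QuadGraph.fives (nb G x))
    (t := (univ : Finset (Cls G x))) (fun K c => c ∈ K)
  have hl : ∀ K ∈ QuadGraph.fives (nb G x),
      ((univ : Finset (Cls G x)).bipartiteAbove (fun K c => c ∈ K) K).card = 5 := fun K hK => by
    rw [← (QuadGraph.mem_fives.1 hK).1]; congr 1; ext; simp [bipartiteAbove]
  simp only [bipartiteBelow] at h
  rw [sum_congr rfl hl, sum_congr rfl (fun c _ => hq.card_fives_point c), sum_const, sum_const, card_univ,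
    hq.total, smul_eq_mul, smul_eq_mul] at h
  omega

theorem card_through_two {y : V} (hyx : y ≠ x) (hy : ¬ G.Adj x y) :
    ((cocliques G).filter fun C => x ∈ C ∧ y ∈ C).card = 2 := by
  classical
  have hya : y ∈ away G x := (mem_away x).2 ⟨hyx, hy⟩
  have hq := quad hG x
  have hmem : ∀ K : Finset (Cls G x), y ∈ lift G x K ↔ mkCls x hya ∈ K := by
    intro K
    simp only [lift, mem_insert, mem_biUnion]
    refine ⟨?_, fun h => Or.inr ⟨_, h, mem_self hG x hya⟩⟩
    rintro (e | ⟨c, hc, h⟩)
    · exact absurd e hyx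
    · obtain ⟨_, rfl⟩ := (mem_class hG x).1 h; exact hc
  have e : ((cocliques G).filter fun C => x ∈ C ∧ y ∈ C) =
      ((QuadGraph.fives (nb G x)).filter fun K => mkCls x hya ∈ K).image (lift G x) := by
    ext C
    simp only [mem_filter, Finset.mem_image, QuadGraph.mem_fives]
    constructor
    · rintro ⟨hC, hx, hyC⟩
      obtain ⟨K, hK, rfl⟩ := exists_five hG x hC hx
      exact ⟨K, ⟨hK, (hmem K).1 hyC⟩, rfl⟩
    · rintro ⟨K, ⟨hK, hc⟩, rfl⟩
      exact ⟨(lift_mem hG x hK).1, (lift_mem hG x hK).2, (hmem K).2 hc⟩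
  rw [e, card_image_of_injective _ fun _ _ h => lift_inj hG x h]
  exact hq.card_fives_point _

omit x in
theorem card_cocliques : (cocliques G).card = 22 := by
  classical
  have h := sum_card_bipartiteAbove_eq_sum_card_bipartiteBelow (s := cocliques G) (t := (univ : Finset V))
    (fun C v => v ∈ C)
  have hl : ∀ C ∈ cocliques G, ((univ : Finset V).bipartiteAbove (fun C v => v ∈ C) C).card = 21 := fun C hC => by
    rw [← ((mem_cocliques G).1 hC).1]; congr 1; ext; simp [bipartiteAbove]
  simp only [bipartiteBelow] at h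
  rw [sum_congr rfl hl, sum_congr rfl (fun v _ => card_through hG v), sum_const, sum_const, card_univ, hG.card,
    smul_eq_mul, smul_eq_mul] at h
  omega

end CfsgLib.SRG77
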