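import Mathlib

/-!
The semidefinite identities of a strongly regular graph with parameters (77, 16, 0, 4), and the equivalence
relation they give on the sixty vertices away from a vertex.
-/

set_option autoImplicit false

namespace CfsgLib.SRG77

open Finset

/-- A symmetric matrix with `M² = c M`, `c > 0`, has non-negative quadratic form, vanishing only on its kernel. -/
theorem psd {V : Type*} [Fintype V] (M : V → V → ℤ) (c : ℤ) (hc : 0 < c) (hsymm : ∀ u v, M u v = M v u)
    (hsq : ∀ u v, ∑ z, M z u * M z v = c * M u v) (v : V → ℤ) :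
    0 ≤ ∑ u, v u * ∑ w, M u w * v w ∧
      (∑ u, v u * ∑ w, M u w * v w = 0 → ∀ u, ∑ w, M u w * v w = 0) := by
  have key : ∑ z, (∑ w, M z w * v w) ^ 2 = c * ∑ u, v u * ∑ w, M u w * v w := by
    simp only [sq, sum_mul_sum, mul_sum]
    rw [sum_comm]
    refine sum_congr rfl fun u _ => ?_
    simp only [sum_mul]
    rw [sum_comm]
    refine sum_congr rfl fun w _ => ?_
    calc ∑ z, M z w * v w * (M z u * v u) = v u * v w * ∑ z, M z u * M z w := by
          rw [mul_sum]; exact sum_congr rfl fun z _ => by ring
      _ = c * (v u * (M u w * v w)) := by rw [hsq]; ring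
  have h0 : 0 ≤ ∑ z, (∑ w, M z w * v w) ^ 2 := sum_nonneg fun z _ => sq_nonneg _
  refine ⟨?_, fun h u => ?_⟩
  · rw [key] at h0
    exact nonneg_of_mul_nonneg_right h0 hc
  · rw [h, mul_zero] at key
    exact sq_eq_zero_iff.1 ((sum_eq_zero_iff_of_nonneg fun z _ => sq_nonneg _).1 key u (mem_univ _))

variable {V : Type*} [Fintype V] [DecidableEq V] (G : SimpleGraph V) [DecidableRel G.Adj]

/-- The adjacency function. -/
def adj (u v : V) : ℤ := if G.Adj u v then 1 else 0

theorem adj_comm (u v : V) : adj G u v = adj G v u := by simp only [adj, G.adj_comm]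

theorem adj_self (u : V) : adj G u u = 0 := by simp [adj]

theorem adj_sq (u v : V) : adj G u v * adj G u v = adj G u v := by unfold adj; split_ifs <;> norm_num

theorem adj_zero {u v : V} (h : ¬ G.Adj u v) : adj G u v = 0 := if_neg h

theorem adj_one {u v : V} (h : G.Adj u v) : adj G u v = 1 := if_pos h

theorem adj_nonneg (u v : V) : 0 ≤ adj G u v := by unfold adj; split_ifs <;> norm_num

variable {G} (hG : G.IsSRGWith 77 16 0 4)
include hG

theorem sum_adj (u : V) : ∑ v, adj G u v = 16 := by
  simp only [adj, sum_boole]
  have h := hG.regular u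
  rw [← SimpleGraph.card_neighborFinset_eq_degree, SimpleGraph.neighborFinset_eq_filter] at h
  exact_mod_cast h

theorem sum_adj' (u : V) : ∑ v, adj G v u = 16 := by
  rw [← sum_adj hG u]; exact sum_congr rfl fun v _ => adj_comm G v u

theorem common (u v : V) :
    ∑ z, adj G u z * adj G v z = 12 * (if u = v then 1 else 0) + 4 - 4 * adj G u v := by
  rcases eq_or_ne u v with rfl | hne
  · simp [adj_sq, sum_adj hG, adj_self]
  have e : ∑ z, adj G u z * adj G v z = (Fintype.card (G.commonNeighbors u v) : ℤ) := by
    have h1 : ∀ z, adj G u z * adj G v z = if G.Adj u z ∧ G.Adj v z then 1 else 0 := fun z => by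
      unfold adj; split_ifs <;> simp_all
    simp only [h1, sum_boole]
    rw [← Set.toFinset_card]
    have hf : (univ.filter fun z => G.Adj u z ∧ G.Adj v z) = (G.commonNeighbors u v).toFinset := by
      ext; simp [SimpleGraph.mem_commonNeighbors]
    rw [hf]
  rw [e, if_neg hne]
  by_cases h : G.Adj u v
  · rw [hG.of_adj u v h, adj_one G h]; norm_num
  · rw [hG.of_not_adj hne h, adj_zero G h]; norm_num

theorem no_triangle {u v : V} (h : adj G u v = 1) (z : V) : adj G u z * adj G v z = 0 := by
  have hne : u ≠ v := fun e => by rw [e, adj_self] at h; norm_num at h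
  have := common hG u v
  rw [h, if_neg hne] at this
  exact (sum_eq_zero_iff_of_nonneg fun z _ => mul_nonneg (adj_nonneg G u z) (adj_nonneg G v z)).1
    (by linarith) z (mem_univ _)

theorem triangle_zero (u v z : V) : adj G u v * adj G u z * adj G v z = 0 := by
  by_cases h : G.Adj u v
  · rw [mul_assoc, no_triangle hG (adj_one G h), mul_zero]
  · simp [adj_zero G h]

omit hG in
theorem sum_delta (u : V) (f : V → ℤ) : ∑ z, (if z = u then 1 else 0) * f z = f u := by simp

theorem sq_low (u v : V) :
    ∑ z, (22 * (if z = u then 1 else 0) - 11 * adj G z u + 2) * (22 * (if z = v then 1 else 0) - 11 * adj G z v + 2) =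
      88 * (22 * (if u = v then 1 else 0) - 11 * adj G u v + 2) := by
  have e : ∀ z, (22 * (if z = u then 1 else 0) - 11 * adj G z u + 2) *
      (22 * (if z = v then 1 else 0) - 11 * adj G z v + 2) =
      (if z = u then 1 else 0) * (484 * (if z = v then 1 else 0) - 242 * adj G z v + 44) +
      (if z = v then 1 else 0) * (44 - 242 * adj G z u) +
      121 * (adj G u z * adj G v z) - 22 * adj G z u - 22 * adj G z v + 4 := by
    intro z; rw [adj_comm G u z, adj_comm G v z]; ring
  simp only [e, sum_add_distrib, sum_sub_distrib, sum_delta, ← mul_sum, common hG, sum_adj' hG]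
  rw [adj_comm G v u]
  simp only [sum_const, card_univ, hG.card]
  ring

theorem sq_high (u v : V) :
    ∑ z, (42 * (if z = u then 1 else 0) + 7 * adj G z u - 2) * (42 * (if z = v then 1 else 0) + 7 * adj G z v - 2) =
      56 * (42 * (if u = v then 1 else 0) + 7 * adj G u v - 2) := by
  have e : ∀ z, (42 * (if z = u then 1 else 0) + 7 * adj G z u - 2) *
      (42 * (if z = v then 1 else 0) + 7 * adj G z v - 2) =
      (if z = u then 1 else 0) * (1764 * (if z = v then 1 else 0) + 294 * adj G z v - 84) +
      (if z = v then 1 else 0) * (294 * adj G z u - 84) +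
      49 * (adj G u z * adj G v z) - 14 * adj G z u - 14 * adj G z v + 4 := by
    intro z; rw [adj_comm G u z, adj_comm G v z]; ring
  simp only [e, sum_add_distrib, sum_sub_distrib, sum_delta, ← mul_sum, common hG, sum_adj' hG]
  rw [adj_comm G v u]
  simp only [sum_const, card_univ, hG.card]
  ring

omit hG in
/-- The image of `v` under `22 - 11 A + 2 J`. -/
def low (G : SimpleGraph V) [DecidableRel G.Adj] (v : V → ℤ) (u : V) : ℤ :=
  22 * v u - 11 * ∑ w, adj G u w * v w + 2 * ∑ w, v w

omit hG in
theorem low_eq (v : V → ℤ) (u : V) :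
    low G v u = ∑ w, (22 * (if u = w then 1 else 0) - 11 * adj G u w + 2) * v w := by
  simp only [low, add_mul, sub_mul, sum_add_distrib, sum_sub_distrib, mul_assoc, ← mul_sum]
  simp

omit hG in
theorem low_comm (f v : V → ℤ) : ∑ u, f u * low G v u = ∑ u, v u * low G f u := by
  simp only [low_eq, mul_sum]
  rw [sum_comm]
  refine sum_congr rfl fun u _ => sum_congr rfl fun w _ => ?_
  rw [adj_comm G w u]
  simp only [eq_comm (a := w) (b := u)]
  ring

theorem low_psd (v : V → ℤ) :
    0 ≤ ∑ u, v u * low G v u ∧ (∑ u, v u * low G v u = 0 → ∀ u, low G v u = 0) := by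
  simp only [low_eq]
  exact psd _ 88 (by norm_num) (fun u w => by rw [adj_comm G u w]; simp only [eq_comm (a := u) (b := w)])
    (sq_low hG) v

theorem high_psd (v : V → ℤ)
    (h : ∑ u, v u * (42 * v u + 7 * ∑ w, adj G u w * v w - 2 * ∑ w, v w) = 0) (u : V) :
    42 * v u + 7 * ∑ w, adj G u w * v w - 2 * ∑ w, v w = 0 := by
  have e : ∀ u, 42 * v u + 7 * ∑ w, adj G u w * v w - 2 * ∑ w, v w =
      ∑ w, (42 * (if u = w then 1 else 0) + 7 * adj G u w - 2) * v w := fun u => by
    simp only [add_mul, sub_mul, sum_add_distrib, sum_sub_distrib, mul_assoc, ← mul_sum]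
    simp
  simp only [e] at h ⊢
  exact (psd _ 56 (by norm_num) (fun u w => by rw [adj_comm G u w]; simp only [eq_comm (a := u) (b := w)])
    (sq_high hG) v).2 h u

section base

variable (x : V)

omit hG in
/-- The vertices away from `x`. -/
def away (G : SimpleGraph V) [DecidableRel G.Adj] (x : V) : Finset V :=
  univ.filter fun z => z ≠ x ∧ ¬ G.Adj x z

omit hG in
/-- The common neighbours inside the neighbourhood of `x`. -/
def kk (G : SimpleGraph V) [DecidableRel G.Adj] (x y z : V) : ℤ :=
  ∑ n, adj G x n * adj G y n * adj G z n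

omit hG in
/-- The reduced inner product. -/
def phi (G : SimpleGraph V) [DecidableRel G.Adj] (x y z : V) : ℤ :=
  4 * (if y = z then 1 else 0) - 2 * adj G y z - kk G x y z

omit hG in
theorem mem_away {z : V} : z ∈ away G x ↔ z ≠ x ∧ ¬ G.Adj x z := by simp [away]

omit hG in
theorem kk_comm (y z : V) : kk G x y z = kk G x z y := sum_congr rfl fun n _ => by ring

omit hG in
theorem phi_comm (y z : V) : phi G x y z = phi G x z y := by
  simp only [phi, kk_comm x y z, adj_comm G y z, eq_comm (a := y) (b := z)]

theorem sum_away (f : V → ℤ) : ∑ z ∈ away G x, f z = ∑ z, f z - f x - ∑ z, adj G x z * f z := by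
  rw [away, sum_filter]
  have : ∀ z, (if z ≠ x ∧ ¬ G.Adj x z then f z else 0) = f z - (if z = x then 1 else 0) * f z - adj G x z * f z := by
    intro z
    rcases eq_or_ne z x with rfl | hz
    · simp [adj_self]
    · by_cases h : G.Adj x z <;> simp [h, hz, adj]
  simp only [this, sum_sub_distrib, sum_delta]

theorem card_away : (away G x).card = 60 := by
  have h := sum_away hG x fun _ => (1 : ℤ)
  simp only [sum_const, nsmul_eq_mul, mul_one, card_univ, hG.card, sum_adj hG] at h
  norm_num at h
  exact_mod_cast h

theorem sum_near {y : V} (hy : y ∈ away G x) : ∑ n, adj G x n * adj G y n = 4 := by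
  rw [common hG, if_neg (Ne.symm (mem_away x |>.1 hy).1), adj_zero G ((mem_away x).1 hy).2]; norm_num

theorem kk_self {y : V} (hy : y ∈ away G x) : kk G x y y = 4 := by
  rw [kk, ← sum_near hG x hy]
  exact sum_congr rfl fun n _ => by rw [mul_assoc, adj_sq]

theorem phi_self {y : V} (hy : y ∈ away G x) : phi G x y y = 0 := by
  simp [phi, adj_self, kk_self hG x hy]

theorem kk_adj {y z : V} (h : G.Adj y z) : kk G x y z = 0 :=
  sum_eq_zero fun n _ => by rw [mul_assoc, no_triangle hG (adj_one G h), mul_zero]

omit hG in
theorem kk_nonneg (y z : V) : 0 ≤ kk G x y z :=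
  sum_nonneg fun n _ => mul_nonneg (mul_nonneg (adj_nonneg G x n) (adj_nonneg G y n)) (adj_nonneg G z n)

/-- Neighbours of `x` are pairwise non-adjacent. -/
theorem adj_near (u n : V) : adj G x u * (adj G u n * adj G x n) = 0 := by
  linear_combination triangle_zero hG x u n

theorem kk_le_two {y z : V} (hy : y ∈ away G x) (hz : z ∈ away G x) (hne : y ≠ z) (h : ¬ G.Adj y z) :
    kk G x y z ≤ 2 := by
  obtain ⟨hyx, hy'⟩ := (mem_away x).1 hy
  obtain ⟨hzx, hz'⟩ := (mem_away x).1 hz
  let v : V → ℤ := fun u => 18 * (if u = y then 1 else 0) + 18 * (if u = z then 1 else 0) +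
    24 * (if u = x then 1 else 0) + 9 * (adj G x u * (adj G y u + adj G z u))
  have hsum : ∑ u, v u = 132 := by
    simp only [v, mul_add, sum_add_distrib, ← mul_sum, sum_near hG x hy, sum_near hG x hz]
    simp
  have hA : ∀ u, ∑ w, adj G u w * v w = 18 * adj G u y + 18 * adj G u z + 24 * adj G u x +
      9 * ∑ w, adj G u w * adj G x w * (adj G y w + adj G z w) := by
    intro u
    simp only [v, mul_add, sum_add_distrib, mul_sum, mul_ite, mul_one, mul_zero, Finset.sum_ite_eq', mem_univ,
      if_true]
    ring_nf
  have hy0 : low G v y = 264 - 99 * kk G x y z := by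
    have e : ∑ w, adj G y w * adj G x w * (adj G y w + adj G z w) = 4 + kk G x y z := by
      rw [← kk_self hG x hy, kk, kk, ← sum_add_distrib]
      exact sum_congr rfl fun w _ => by ring
    rw [low, hA, e, hsum, adj_self, adj_zero G h, adj_comm G y x, adj_zero G hy']
    simp [v, hne, hyx, adj_zero G hy']
    ring
  have hz0 : low G v z = 264 - 99 * kk G x y z := by
    have e : ∑ w, adj G z w * adj G x w * (adj G y w + adj G z w) = 4 + kk G x y z := by
      rw [← kk_self hG x hz, kk, kk, ← sum_add_distrib]
      exact sum_congr rfl fun w _ => by ring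
    rw [low, hA, e, hsum, adj_self, adj_comm G z y, adj_zero G h, adj_comm G z x, adj_zero G hz']
    simp [v, hne.symm, hzx, adj_zero G hz']
    ring
  have hx0 : low G v x = 0 := by
    have e : ∑ w, adj G x w * adj G x w * (adj G y w + adj G z w) = 8 := by
      simp only [adj_sq, mul_add, sum_add_distrib, sum_near hG x hy, sum_near hG x hz]
      norm_num
    rw [low, hA, e, hsum, adj_self, adj_zero G hy', adj_zero G hz']
    simp [v, hyx.symm, hzx.symm, adj_self]
  have hn0 : ∀ u, adj G x u * low G v u = 0 := by
    intro u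
    by_cases hu : G.Adj x u
    · have e : ∑ w, adj G u w * adj G x w * (adj G y w + adj G z w) = 0 := sum_eq_zero fun w _ => by
        have := adj_near hG x u w
        rw [adj_one G hu, one_mul] at this
        rw [this, zero_mul]
      have huy : u ≠ y := fun e => hy' (e ▸ hu)
      have huz : u ≠ z := fun e => hz' (e ▸ hu)
      rw [low, hA, e, hsum, adj_comm G u x, adj_one G hu]
      simp [v, huy, huz, hu.ne', adj_one G hu, adj_comm G u y, adj_comm G u z]
      ring
    · rw [adj_zero G hu, zero_mul]
  have hq := (low_psd hG v).1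
  have hexp : ∑ u, v u * low G v u = 18 * low G v y + 18 * low G v z + 24 * low G v x := by
    have : ∀ u, v u * low G v u = (if u = y then 1 else 0) * (18 * low G v u) +
        (if u = z then 1 else 0) * (18 * low G v u) + (if u = x then 1 else 0) * (24 * low G v u) +
        9 * ((adj G y u + adj G z u) * (adj G x u * low G v u)) := fun u => by simp only [v]; ring
    simp only [this, hn0, mul_zero, add_zero, sum_add_distrib, sum_delta]
  rw [hexp, hy0, hz0, hx0] at hq
  omega

theorem phi_values {y z : V} (hy : y ∈ away G x) (hz : z ∈ away G x) :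
    phi G x y z = 0 ∨ phi G x y z = -1 ∨ phi G x y z = -2 := by
  rcases eq_or_ne y z with rfl | hne
  · exact Or.inl (phi_self hG x hy)
  by_cases h : G.Adj y z
  · simp [phi, hne, adj_one G h, kk_adj hG x h]
  · have h1 := kk_le_two hG x hy hz hne h
    have h2 := kk_nonneg (G := G) x y z
    simp [phi, hne, adj_zero G h]
    omega

theorem phi_of_adj {y z : V} (h : G.Adj y z) : phi G x y z = -2 := by
  simp [phi, h.ne, adj_one G h, kk_adj hG x h]

/-- The classes of `φ = 0` have equal rows. -/
theorem phi_congr {y z : V} (hy : y ∈ away G x) (hz : z ∈ away G x) (h0 : phi G x y z = 0) {w : V}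
    (hw : w ∈ away G x) : phi G x y w = phi G x z w := by
  obtain ⟨hyx, hy'⟩ := (mem_away x).1 hy
  obtain ⟨hzx, hz'⟩ := (mem_away x).1 hz
  let v : V → ℤ := fun u => 2 * (if u = y then 1 else 0) - 2 * (if u = z then 1 else 0) +
    adj G x u * (adj G y u - adj G z u)
  have hsum : ∑ u, v u = 0 := by
    simp only [v, mul_sub, sum_add_distrib, sum_sub_distrib, ← mul_sum, sum_near hG x hy, sum_near hG x hz]
    simp
  have hA : ∀ u, ∑ w, adj G u w * v w = 2 * adj G u y - 2 * adj G u z + kk G x u y - kk G x u z := by
    intro u
    simp only [v, kk, mul_add, mul_sub, sum_add_distrib, sum_sub_distrib, mul_ite, mul_one, mul_zero,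
      Finset.sum_ite_eq', mem_univ, if_true]
    simp only [mul_comm (adj G x _) (adj G u _)]
    ring_nf
  have hout : ∀ u, ¬ G.Adj x u → low G v u = 11 * (phi G x y u - phi G x z u) := by
    intro u hu
    rw [low, hA, hsum, phi_comm x y u, phi_comm x z u]
    simp only [phi, v, adj_zero G hu]
    ring
  have hn0 : ∀ u, adj G x u * low G v u = 0 := by
    intro u
    by_cases hu : G.Adj x u
    · have e : ∀ y', kk G x u y' = 0 := fun y' => sum_eq_zero fun n _ => by
        have := adj_near hG x u n
        rw [adj_one G hu, one_mul] at this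
        rw [mul_comm (adj G x n), this, zero_mul]
      have huy : u ≠ y := fun e => hy' (e ▸ hu)
      have huz : u ≠ z := fun e => hz' (e ▸ hu)
      rw [low, hA, hsum, e, e, adj_one G hu]
      simp [v, huy, huz, adj_one G hu, adj_comm G u y, adj_comm G u z]
      ring
    · rw [adj_zero G hu, zero_mul]
  have hexp : ∑ u, v u * low G v u = 2 * low G v y - 2 * low G v z := by
    have : ∀ u, v u * low G v u = (if u = y then 1 else 0) * (2 * low G v u) -
        (if u = z then 1 else 0) * (2 * low G v u) + (adj G y u - adj G z u) * (adj G x u * low G v u) :=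
      fun u => by simp only [v]; ring
    simp only [this, hn0, mul_zero, add_zero, sum_sub_distrib, sum_delta]
  have hz0 : phi G x z y = 0 := by rw [phi_comm x z y]; exact h0
  have hker := (low_psd hG v).2 (by
    rw [hexp, hout y hy', hout z hz', phi_self hG x hy, phi_self hG x hz, hz0, h0]; norm_num) w
  rw [hout w ((mem_away x).1 hw).2] at hker
  linarith

theorem sum_away_adj {y : V} (hy : y ∈ away G x) : ∑ z ∈ away G x, adj G y z = 12 := by
  rw [sum_away hG, sum_adj hG, adj_comm G y x, adj_zero G ((mem_away x).1 hy).2]
  linarith [sum_near hG x hy]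

theorem sum_phi {y : V} (hy : y ∈ away G x) : ∑ z ∈ away G x, phi G x y z = -80 := by
  have hk : ∑ z ∈ away G x, kk G x y z = 60 := by
    simp only [kk]
    rw [sum_comm]
    have : ∀ n, ∑ z ∈ away G x, adj G x n * adj G y n * adj G z n = (adj G x n * adj G y n) * 15 := by
      intro n
      rw [← mul_sum]
      by_cases hn : G.Adj x n
      · congr 1
        rw [sum_away hG, sum_adj' hG, adj_one G hn]
        have : ∑ z, adj G x z * adj G z n = 0 := sum_eq_zero fun z _ => by
          rw [adj_comm G z n]; exact no_triangle hG (adj_one G hn) z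
        rw [this]; norm_num
      · simp [adj_zero G hn]
    rw [sum_congr rfl fun n _ => this n, ← sum_mul, sum_near hG x hy]
    norm_num
  simp only [phi, sum_sub_distrib, ← mul_sum, sum_away_adj hG x hy, hk]
  rw [Finset.sum_ite_eq, if_pos hy]
  norm_num

theorem away_pair {y w : V} (hy : y ∈ away G x) :
    ∑ z ∈ away G x, adj G y z * adj G w z =
      12 * (if y = w then 1 else 0) + 4 - 4 * adj G y w - kk G x y w := by
  rw [sum_away hG, common hG, adj_comm G y x, adj_zero G ((mem_away x).1 hy).2]
  simp only [kk, mul_assoc]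
  ring

theorem phi_mul {y w : V} (hy : y ∈ away G x) (hw : w ∈ away G x) :
    ∑ z ∈ away G x, phi G x y z * phi G x w z = 16 * phi G x y w + 128 := by
  have hAK : ∀ {y w : V}, y ∈ away G x → w ∈ away G x →
      ∑ z ∈ away G x, adj G y z * kk G x w z = 16 - 4 * kk G x y w := by
    intro y w hy hw
    simp only [kk, mul_sum]
    rw [sum_comm]
    have : ∀ n, ∑ z ∈ away G x, adj G y z * (adj G x n * adj G w n * adj G z n) =
        4 * (adj G x n * adj G w n) - 4 * (adj G x n * adj G y n * adj G w n) := by
      intro n
      by_cases hn : G.Adj x n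
      · have hyn : y ≠ n := fun e => ((mem_away x).1 hy).2 (e ▸ hn)
        have h0 : kk G x y n = 0 := sum_eq_zero fun m _ => by
          rw [mul_comm (adj G x m), mul_assoc, no_triangle hG (adj_one G hn), mul_zero]
        have hp := away_pair hG x (w := n) hy
        rw [if_neg hyn, h0] at hp
        rw [sum_congr rfl (g := fun z => (adj G x n * adj G w n) * (adj G y z * adj G n z))
          (fun z _ => by rw [adj_comm G z n]; ring), ← mul_sum, hp]
        ring
      · simp [adj_zero G hn]
    rw [sum_congr rfl fun n _ => this n, sum_sub_distrib, ← mul_sum, ← mul_sum, sum_near hG x hw]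
    norm_num
  have hKK : ∑ z ∈ away G x, kk G x y z * kk G x w z = 12 * kk G x y w + 48 := by
    simp only [kk, sum_mul_sum]
    rw [sum_comm]
    have : ∀ m, ∑ z ∈ away G x, ∑ n, adj G x m * adj G y m * adj G z m * (adj G x n * adj G w n * adj G z n) =
        12 * (adj G x m * adj G y m * adj G w m) + 12 * (adj G x m * adj G y m) := by
      intro m
      rw [sum_comm]
      by_cases hm : G.Adj x m
      · have hpair : ∀ n, ∑ z ∈ away G x, adj G x m * adj G y m * adj G z m * (adj G x n * adj G w n * adj G z n) =
            (if n = m then 1 else 0) * (12 * (adj G y m * adj G w n)) + 3 * (adj G y m * (adj G x n * adj G w n)) := by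
          intro n
          by_cases hn : G.Adj x n
          · rw [sum_congr rfl (g := fun z => (adj G y m * adj G w n) * (adj G m z * adj G n z))
              (fun z _ => by rw [adj_one G hm, adj_one G hn, adj_comm G z m, adj_comm G z n]; ring), ← mul_sum,
              sum_away hG, common hG, adj_comm G m x, adj_comm G n x, adj_one G hm, adj_one G hn]
            have hmn : adj G m n = 0 := by
              have := no_triangle hG (adj_one G hm) n
              rwa [adj_one G hn, one_mul] at this
            have h0 : ∑ z, adj G x z * (adj G m z * adj G n z) = 0 := sum_eq_zero fun z _ => by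
              rw [← mul_assoc, no_triangle hG (adj_one G hm), zero_mul]
            rw [h0, hmn]
            simp only [eq_comm (a := m) (b := n)]
            ring
          · have hne : n ≠ m := fun e => hn (e ▸ hm)
            simp [adj_zero G hn, hne]
        rw [sum_congr rfl fun n _ => hpair n, sum_add_distrib, sum_delta, ← mul_sum, ← mul_sum,
          sum_near hG x hw, adj_one G hm]
        ring
      · simp [adj_zero G hm]
    rw [sum_congr rfl fun m _ => this m, sum_add_distrib, ← mul_sum, ← mul_sum, sum_near hG x hy]
    norm_num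
  have e : ∀ z, phi G x y z * phi G x w z = (if y = z then 1 else 0) * (4 * phi G x w z) -
      (if w = z then 1 else 0) * (4 * (2 * adj G y z + kk G x y z)) + 4 * (adj G y z * adj G w z) +
      2 * (adj G y z * kk G x w z) + 2 * (adj G w z * kk G x y z) + kk G x y z * kk G x w z := by
    intro z; simp only [phi]; ring
  simp only [e, sum_add_distrib, sum_sub_distrib, ← mul_sum, away_pair hG x hy, hAK hy hw, hAK hw hy, hKK,
    ite_mul, one_mul, zero_mul, Finset.sum_ite_eq, if_pos hy, if_pos hw, kk_comm x w y, phi_comm x w y]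
  simp only [phi]
  ring

omit hG in
/-- Indicator of the relation `φ = 0`. -/
def same (G : SimpleGraph V) [DecidableRel G.Adj] (x y z : V) : ℤ := if phi G x y z = 0 then 1 else 0

omit hG in
/-- Indicator of the relation `φ = -2`. -/
def opp (G : SimpleGraph V) [DecidableRel G.Adj] (x y z : V) : ℤ := if phi G x y z = -2 then 1 else 0

theorem opp_eq {y z : V} (hy : y ∈ away G x) (hz : z ∈ away G x) :
    opp G x y z = -1 + same G x y z - phi G x y z := by
  rcases phi_values hG x hy hz with h | h | h <;> simp [opp, same, h]

theorem sum_same {y : V} (hy : y ∈ away G x) : ∑ z ∈ away G x, same G x y z = 4 := by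
  have e : ∀ z ∈ away G x, 2 * same G x y z = phi G x y z * phi G x y z + 3 * phi G x y z + 2 := by
    intro z hz
    rcases phi_values hG x hy hz with h | h | h <;> simp [same, h]
  have := sum_congr rfl e
  simp only [sum_add_distrib, ← mul_sum, phi_mul hG x hy hy, sum_phi hG x hy, phi_self hG x hy, sum_const,
    card_away hG x] at this
  norm_num at this
  linarith

theorem sum_opp {y : V} (hy : y ∈ away G x) : ∑ z ∈ away G x, opp G x y z = 24 := by
  rw [sum_congr rfl fun z hz => opp_eq hG x hy hz]
  simp only [sum_add_distrib, sum_sub_distrib, sum_same hG x hy, sum_phi hG x hy, sum_const, card_away hG x]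
  norm_num

theorem sum_opp_mul {y w : V} (hy : y ∈ away G x) (hw : w ∈ away G x) :
    ∑ z ∈ away G x, opp G x y z * opp G x w z = 20 + 4 * same G x y w + 8 * phi G x y w := by
  have h1 : ∀ {y w : V}, y ∈ away G x → w ∈ away G x →
      ∑ z ∈ away G x, same G x y z * phi G x w z = 4 * phi G x y w := by
    intro y w hy hw
    rw [sum_congr rfl (g := fun z => same G x y z * phi G x y w) fun z hz => ?_, ← sum_mul, sum_same hG x hy]
    by_cases h : phi G x y z = 0
    · rw [phi_comm x w z, phi_congr hG x hy hz h hw]
    · simp [same, h]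
  have h2 : ∑ z ∈ away G x, same G x y z * same G x w z = 4 * same G x y w := by
    by_cases h : phi G x y w = 0
    · have e : ∀ z ∈ away G x, same G x y z * same G x w z = same G x y z := fun z hz => by
        rw [same, same, phi_congr hG x hy hw h hz]; split_ifs <;> norm_num
      rw [sum_congr rfl e, sum_same hG x hy]
      simp [same, h]
    · rw [sum_eq_zero, same, if_neg h, mul_zero]
      intro z hz
      by_cases hz0 : phi G x y z = 0
      · have : phi G x w z ≠ 0 := by
          rw [phi_comm x w z, ← phi_congr hG x hy hz hz0 hw]; exact h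
        simp [same, this]
      · simp [same, hz0]
  have e : ∀ z ∈ away G x, opp G x y z * opp G x w z = 1 - same G x y z - same G x w z + phi G x y z +
      phi G x w z + same G x y z * same G x w z - same G x y z * phi G x w z - same G x w z * phi G x y z +
      phi G x y z * phi G x w z := fun z hz => by rw [opp_eq hG x hy hz, opp_eq hG x hw hz]; ring
  rw [sum_congr rfl e]
  simp only [sum_add_distrib, sum_sub_distrib, sum_same hG x hy, sum_same hG x hw, sum_phi hG x hy,
    sum_phi hG x hw, h1 hy hw, h1 hw hy, h2, phi_mul hG x hy hw, sum_const, card_away hG x, phi_comm x w y]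
  ring

end base

end CfsgLib.SRG77
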